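import Cfsg.Agent.H950.Elt
import Cfsg.Agent.H950.Count
/-!
# Existence of operators of prime order with prescribed fixed space; number theory of `x ^ r = c`, `det x = 1`
-/

set_option autoImplicit false

namespace Cfsg.Agent.H950

open Module Polynomial Cfsg.Agent.H951

section Scalar

variable {F : Type*} [Field F]

/-- On `K^t × F^s` with `K = F[X]/(g)`: multiplication by the root of `g` on the first factor, identity on the
second, transported to `F^n`, `n = t deg g + s`. -/
lemma exists_operator {g : F[X]} (hg : Irreducible g) {n t : ℕ} (h : g.natDegree * t ≤ n) {r : ℕ}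
    (hgr : g ∣ X ^ r - 1) (hg1 : g.eval 1 ≠ 0) :
    ∃ T : Module.End F (Fin n → F), T ^ r = 1 ∧ finrank F ↥(fx T) = n - g.natDegree * t := by
  classical
  have : Fact (Irreducible g) := ⟨hg⟩
  let K := AdjoinRoot g
  have hfK : finrank F K = g.natDegree := by
    rw [(AdjoinRoot.powerBasis hg.ne_zero).finrank, AdjoinRoot.powerBasis_dim]
  have : FiniteDimensional F K := (AdjoinRoot.powerBasis hg.ne_zero).finite
  set s := n - g.natDegree * t with hs
  let ζ : K := AdjoinRoot.root g
  have hζ : ζ ^ r = 1 := by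
    have h1 : (AdjoinRoot.mk g) (X ^ r - 1) = 0 := AdjoinRoot.mk_eq_zero.2 hgr
    rw [map_sub, map_pow, map_one, AdjoinRoot.mk_X] at h1
    exact sub_eq_zero.1 h1
  have hζ1 : ζ ≠ 1 := by
    intro h1
    have h2 : eval₂ (AdjoinRoot.of g) ζ g = 0 := AdjoinRoot.eval₂_root g
    rw [h1, eval₂_at_one] at h2
    exact hg1 ((map_eq_zero _).1 h2)
  let M : Module.End F (Fin t → K) := (Algebra.lsmul F F (Fin t → K)) ζ
  let T' : Module.End F ((Fin t → K) × (Fin s → F)) := LinearMap.prodMap M 1
  have hMpow : ∀ k : ℕ, ∀ v, (M ^ k) v = ζ ^ k • v := by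
    intro k v
    change ((Algebra.lsmul F F (Fin t → K)) ζ ^ k) v = _
    rw [← map_pow]
    rfl
  have hTpow : T' ^ r = 1 := by
    refine LinearMap.ext fun v => ?_
    have h1 : ∀ k : ℕ, ∀ v : (Fin t → K) × (Fin s → F), (T' ^ k) v = ((M ^ k) v.1, v.2) := by
      intro k
      induction k with
      | zero => intro v; simp
      | succ k ih => intro v; rw [pow_succ', Module.End.mul_apply, ih, pow_succ', Module.End.mul_apply]; rfl
    rw [h1, hMpow, hζ, one_smul]; rfl
  have hfr : finrank F ((Fin t → K) × (Fin s → F)) = finrank F (Fin n → F) := by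
    rw [Module.finrank_prod, Module.finrank_pi_fintype, Module.finrank_fin_fun, Module.finrank_fin_fun]
    simp only [hfK, Finset.sum_const, Finset.card_univ, Fintype.card_fin, smul_eq_mul]
    rw [hs, mul_comm t]; omega
  let e : ((Fin t → K) × (Fin s → F)) ≃ₗ[F] (Fin n → F) := LinearEquiv.ofFinrankEq _ _ hfr
  refine ⟨e.conjAlgEquiv F T', by rw [← map_pow, hTpow, map_one], ?_⟩
  have h2 : fx (e.conjAlgEquiv F T') = (LinearMap.range (LinearMap.inr F (Fin t → K) (Fin s → F))).map
      e.toLinearMap := by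
    ext v
    rw [mem_fx, Submodule.mem_map, LinearEquiv.conjAlgEquiv_apply]
    constructor
    · intro hv
      refine ⟨e.symm v, ?_, by simp⟩
      have h3 : T' (e.symm v) = e.symm v := by
        apply e.injective
        rw [e.apply_symm_apply]
        exact hv
      have h4 : ζ • (e.symm v).1 = (e.symm v).1 := congrArg Prod.fst h3
      have h5 : (e.symm v).1 = 0 := by
        have h6 : (ζ - 1) • (e.symm v).1 = 0 := by rw [sub_smul, one_smul, h4, sub_self]
        exact (smul_eq_zero.1 h6).resolve_left (sub_ne_zero.2 hζ1)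
      exact ⟨(e.symm v).2, Prod.ext h5.symm rfl⟩
    · rintro ⟨_, ⟨w, rfl⟩, rfl⟩
      have h3 : T' (0, w) = (0, w) := Prod.ext (smul_zero ζ) rfl
      change e (T' (e.symm (e (0, w)))) = e (0, w)
      rw [e.symm_apply_apply, h3]
  rw [h2, LinearEquiv.finrank_map_eq, LinearMap.finrank_range_of_inj LinearMap.inr_injective,
    Module.finrank_fin_fun]

/-- If `X ^ r - c` is irreducible and `r ∣ n` there is a matrix with `x ^ r = c`. -/
lemma exists_root_operator {r : ℕ} {c : F} (hP : Irreducible (X ^ r - C c : F[X])) {n : ℕ} (hrn : r ∣ n) :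
    ∃ x : Matrix (Fin n) (Fin n) F, x ^ r = c • (1 : Matrix (Fin n) (Fin n) F) := by
  classical
  have : Fact (Irreducible (X ^ r - C c : F[X])) := ⟨hP⟩
  let K := AdjoinRoot (X ^ r - C c : F[X])
  have hfK : finrank F K = r := by
    rw [(AdjoinRoot.powerBasis hP.ne_zero).finrank, AdjoinRoot.powerBasis_dim, natDegree_X_pow_sub_C]
  have : FiniteDimensional F K := (AdjoinRoot.powerBasis hP.ne_zero).finite
  let ζ : K := AdjoinRoot.root (X ^ r - C c : F[X])
  have hζ : ζ ^ r = algebraMap F K c := by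
    have h1 : (AdjoinRoot.mk (X ^ r - C c : F[X])) (X ^ r - C c) = 0 := AdjoinRoot.mk_self
    rw [map_sub, map_pow, AdjoinRoot.mk_X, AdjoinRoot.mk_C] at h1
    exact sub_eq_zero.1 h1
  obtain ⟨t, rfl⟩ := hrn
  let M : Module.End F (Fin t → K) := (Algebra.lsmul F F (Fin t → K)) ζ
  have hM : M ^ r = c • 1 := by
    change (Algebra.lsmul F F (Fin t → K)) ζ ^ r = _
    rw [← map_pow, hζ, AlgHom.commutes]
    rfl
  have hfr : finrank F (Fin t → K) = finrank F (Fin (r * t) → F) := by
    rw [Module.finrank_pi_fintype, Module.finrank_fin_fun]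
    simp only [hfK, Finset.sum_const, Finset.card_univ, Fintype.card_fin, smul_eq_mul]
    rw [mul_comm]
  let e : (Fin t → K) ≃ₗ[F] (Fin (r * t) → F) := LinearEquiv.ofFinrankEq _ _ hfr
  refine ⟨LinearMap.toMatrixAlgEquiv' (e.conjAlgEquiv F M), ?_⟩
  rw [← map_pow, ← map_pow, hM, map_smul, map_one, map_smul, map_one]

end Scalar

section Numbers

variable {F : Type*} [Field F] [Fintype F]

/-- Roots of unity of order prime to `q - 1` are trivial. -/
lemma eq_one_of_pow {r : ℕ} [Fact r.Prime] (h : ¬ r ∣ Fintype.card F - 1) {a : F} (ha : a ^ r = 1) : a = 1 := by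
  have ha0 : a ≠ 0 := by
    rintro rfl
    rw [zero_pow (Fact.out : r.Prime).ne_zero] at ha
    exact zero_ne_one ha
  have h1 : orderOf a ∣ r := orderOf_dvd_of_pow_eq_one ha
  have h2 : orderOf a ∣ Fintype.card F - 1 := orderOf_dvd_of_pow_eq_one (FiniteField.pow_card_sub_one_eq_one a ha0)
  rcases (Nat.dvd_prime Fact.out).1 h1 with h3 | h3
  · exact orderOf_eq_one_iff.1 h3
  · exact absurd (h3 ▸ h2) h

/-- When `r ∤ q - 1` every element is an `r`-th power. -/
lemma exists_pow_eq {r : ℕ} [Fact r.Prime] (h : ¬ r ∣ Fintype.card F - 1) (c : F) : ∃ d : F, d ^ r = c := by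
  have hinj : Function.Injective (fun a : F => a ^ r) := by
    intro a b hab
    change a ^ r = b ^ r at hab
    by_cases hb : b = 0
    · subst hb
      rw [zero_pow (Fact.out : r.Prime).ne_zero] at hab
      exact eq_zero_of_pow_eq_zero hab
    · have h1 : (a / b) ^ r = 1 := by rw [div_pow, hab, div_self (pow_ne_zero _ hb)]
      have h2 := eq_one_of_pow h h1
      rwa [div_eq_one_iff_eq hb] at h2
  exact (Finite.surjective_of_injective hinj) c

/-- `c ≠ 0` is an `r`-th power iff `c^{(q-1)/r} = 1`, when `r ∣ q - 1`. -/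
lemma exists_pow_eq_iff {r : ℕ} [Fact r.Prime] (h : r ∣ Fintype.card F - 1) {c : F} (hc : c ≠ 0) :
    (∃ d : F, d ^ r = c) ↔ c ^ ((Fintype.card F - 1) / r) = 1 := by
  constructor
  · rintro ⟨d, rfl⟩
    have hd : d ≠ 0 := by
      rintro rfl
      exact hc (zero_pow (Fact.out : r.Prime).ne_zero)
    rw [← pow_mul, Nat.mul_div_cancel' h]
    exact FiniteField.pow_card_sub_one_eq_one d hd
  · intro hcp
    obtain ⟨g, hg⟩ := IsCyclic.exists_generator (α := Fˣ)
    obtain ⟨j, hj⟩ := hg (Units.mk0 c hc)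
    have hord : orderOf g = Fintype.card F - 1 := by
      rw [orderOf_eq_card_of_forall_mem_zpowers hg, Nat.card_units, Nat.card_eq_fintype_card]
    have h1 : g ^ (j * (((Fintype.card F - 1) / r : ℕ) : ℤ)) = 1 := by
      rw [zpow_mul]
      change g ^ j = _ at hj
      rw [hj, zpow_natCast]
      apply Units.ext
      rw [Units.val_pow_eq_pow_val, Units.val_mk0, hcp]
      rfl
    rw [← orderOf_dvd_iff_zpow_eq_one, hord] at h1
    obtain ⟨e, he⟩ := h
    have hr0 : 0 < r := (Fact.out : r.Prime).pos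
    have hq1 : 0 < Fintype.card F - 1 := Nat.sub_pos_of_lt Fintype.one_lt_card
    have he0 : 0 < e := by
      rcases Nat.eq_zero_or_pos e with h | h
      · rw [h, mul_zero] at he; omega
      · exact h
    rw [he, Nat.mul_div_cancel_left _ hr0] at h1
    push_cast at h1
    have h2 : (r : ℤ) ∣ j := Int.dvd_of_mul_dvd_mul_right (by exact_mod_cast he0.ne') h1
    obtain ⟨k, hk⟩ := h2
    refine ⟨((g ^ k : Fˣ) : F), ?_⟩
    have h3 : (g ^ k) ^ r = Units.mk0 c hc := by
      rw [← hj, ← zpow_natCast, ← zpow_mul, hk, mul_comm]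
    rw [← Units.val_pow_eq_pow_val, h3]
    rfl

lemma dvd_div_of_padic_lt {r a b : ℕ} [Fact r.Prime] (hb : b ≠ 0) (h : a ∣ b)
    (hlt : padicValNat r a < padicValNat r b) : a ∣ b / r := by
  obtain ⟨e, rfl⟩ := h
  have ha0 : a ≠ 0 := by rintro rfl; simp at hb
  have he0 : e ≠ 0 := by rintro rfl; simp at hb
  rw [padicValNat.mul ha0 he0] at hlt
  have hre : r ∣ e := dvd_of_one_le_padicValNat (by omega)
  obtain ⟨f, rfl⟩ := hre
  refine ⟨f, ?_⟩
  rw [show a * (r * f) = r * (a * f) by ring, Nat.mul_div_cancel_left _ (Fact.out : r.Prime).pos]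

/-- A non-`r`-th power `a` with `a^{n/r} = 1` exists iff `v_r(n) > v_r(q-1)` (given `r ∣ q-1`, `r ∣ n`). -/
lemma exists_nonpower_iff {r n : ℕ} [Fact r.Prime] (h : r ∣ Fintype.card F - 1) (hn : n ≠ 0) (hrn : r ∣ n) :
    (∃ a : F, (∀ d : F, d ^ r ≠ a) ∧ a ^ (n / r) = 1) ↔
      padicValNat r (Fintype.card F - 1) < padicValNat r n := by
  have hrp : r.Prime := Fact.out
  have hq1 : Fintype.card F - 1 ≠ 0 := (Nat.sub_pos_of_lt Fintype.one_lt_card).ne'
  obtain ⟨e, he⟩ := hrn
  have he0 : e ≠ 0 := by rintro rfl; simp at he; exact hn he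
  have hv : padicValNat r n = padicValNat r e + 1 := by
    rw [he, padicValNat.mul hrp.ne_zero he0, padicValNat_self, add_comm]
  have hdiv : n / r = e := by rw [he, Nat.mul_div_cancel_left _ hrp.pos]
  rw [hdiv, hv]
  constructor
  · rintro ⟨a, ha, hae⟩
    have ha0 : a ≠ 0 := by
      rintro rfl
      exact ha 0 (zero_pow hrp.ne_zero)
    by_contra hlt
    have h1 : orderOf a ∣ e := orderOf_dvd_of_pow_eq_one hae
    have h2 : orderOf a ∣ Fintype.card F - 1 := orderOf_dvd_of_pow_eq_one (FiniteField.pow_card_sub_one_eq_one a ha0)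
    have h3 : padicValNat r (orderOf a) ≤ padicValNat r e := (padicValNat_dvd_iff_le he0).1 (pow_padicValNat_dvd.trans h1)
    have h4 : orderOf a ∣ (Fintype.card F - 1) / r := dvd_div_of_padic_lt hq1 h2 (by omega)
    have h5 := (exists_pow_eq_iff h ha0).2 (orderOf_dvd_iff_pow_eq_one.1 h4)
    obtain ⟨d, hd⟩ := h5
    exact ha d hd
  · intro hlt
    obtain ⟨g, hg⟩ := IsCyclic.exists_generator (α := Fˣ)
    have hord : orderOf g = Fintype.card F - 1 := by
      rw [orderOf_eq_card_of_forall_mem_zpowers hg, Nat.card_units, Nat.card_eq_fintype_card]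
    obtain ⟨s, hs⟩ := pow_padicValNat_dvd (p := r) (n := Fintype.card F - 1)
    set k := padicValNat r (Fintype.card F - 1) with hk
    have hs0 : s ≠ 0 := by rintro rfl; rw [mul_zero] at hs; exact hq1 hs
    have hgs : orderOf (g ^ s) = r ^ k := by
      rw [orderOf_pow' g hs0, hord, hs, Nat.gcd_eq_right (dvd_mul_left _ _), Nat.mul_div_cancel _ (Nat.pos_of_ne_zero hs0)]
    have hordF : orderOf ((g ^ s : Fˣ) : F) = r ^ k := by rw [orderOf_units, hgs]
    refine ⟨((g ^ s : Fˣ) : F), ?_, ?_⟩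
    · intro d hd
      have h1 := (exists_pow_eq_iff h (Units.ne_zero (g ^ s))).1 ⟨d, hd⟩
      rw [← orderOf_dvd_iff_pow_eq_one, hordF] at h1
      have hk1 : 1 ≤ k := one_le_padicValNat_of_dvd hq1 h
      have h3 : r ^ (k + 1) ∣ Fintype.card F - 1 := by
        obtain ⟨u, hu⟩ := h1
        refine ⟨u, ?_⟩
        rw [pow_succ, mul_right_comm, ← hu, Nat.div_mul_cancel h]
      have := (padicValNat_dvd_iff_le hq1).1 h3
      omega
    · rw [← orderOf_dvd_iff_pow_eq_one, hordF]
      exact (padicValNat_dvd_iff_le he0).2 (by omega)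

end Numbers

end Cfsg.Agent.H950
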