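import Cfsg.Agent.H950.LinMain
/-!
# A common frame for the `r`-elusive criteria of `PSL_n(q)`, `r ≠ p`
-/

set_option autoImplicit false

namespace Cfsg.Agent.H950

open Module Polynomial Cfsg.Agent.H951

section

variable {F : Type*} [Field F] [Fintype F]

lemma cast_ne_zero_of_not_dvd {p r : ℕ} [Fact p.Prime] [CharP F p] (hr : r.Prime) (h : ¬ r ∣ Fintype.card F) :
    (r : F) ≠ 0 ∧ r ≠ p := by
  obtain ⟨k, -, hk⟩ := FiniteField.card F p
  have hp : p ∣ Fintype.card F := by rw [hk]; exact dvd_pow_self p k.ne_zero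
  have hne : r ≠ p := by rintro rfl; exact h hp
  refine ⟨fun h0 => hne ?_, hne⟩
  have h1 := (CharP.cast_eq_zero_iff F p r).1 h0
  exact ((Nat.prime_dvd_prime_iff_eq Fact.out hr).1 h1).symm

lemma ord_eq_one_iff {r : ℕ} : orderOf (Fintype.card F : ZMod r) = 1 ↔ r ∣ Fintype.card F - 1 := by
  have h := dvd_pow_sub_one_iff (q := Fintype.card F) (r := r) (a := 1) Fintype.card_pos
  rw [pow_one, Nat.dvd_one] at h
  exact h.symm

omit [Fintype F] in
/-- An `x` with irreducible `X ^ r - c` is not scalar. -/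
lemma not_scalar_of_irred {n r : ℕ} (hn : 0 < n) (hr : 2 ≤ r) {c : F} (hP : Irreducible (X ^ r - C c : F[X]))
    {x : Matrix (Fin n) (Fin n) F} (hx : x ^ r = c • (1 : Matrix (Fin n) (Fin n) F)) (d : F) :
    x ≠ d • (1 : Matrix (Fin n) (Fin n) F) := by
  rintro rfl
  rw [_root_.smul_pow, one_pow] at hx
  have h1 : d ^ r = c := by
    have := congrFun (congrFun hx ⟨0, hn⟩) ⟨0, hn⟩
    simpa using this
  have h2 := Polynomial.degree_eq_one_of_irreducible_of_root hP (x := d) (by simp [h1])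
  rw [degree_X_pow_sub_C (by omega)] at h2
  have h3 : r = 1 := by exact_mod_cast h2
  omega

/-- An `x ≠ 1` with `x ^ r = 1` and `r ∤ q - 1` is not scalar. -/
lemma not_scalar_of_pow {n r : ℕ} [Fact r.Prime] (hr : ¬ r ∣ Fintype.card F - 1) (hn : 0 < n)
    {x : Matrix (Fin n) (Fin n) F} (hx : x ^ r = 1) (hx1 : x ≠ 1) (d : F) :
    x ≠ d • (1 : Matrix (Fin n) (Fin n) F) := by
  rintro rfl
  rw [_root_.smul_pow, one_pow] at hx
  have h1 : d ^ r = 1 := by
    have := congrFun (congrFun hx ⟨0, hn⟩) ⟨0, hn⟩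
    simpa using this
  apply hx1
  rw [eq_one_of_pow hr h1, one_smul]

/-- The common frame. `Good x` is the property that `x` fixes an object of the given kind. -/
theorem generic {n r : ℕ} [Fact r.Prime] (hrF : (r : F) ≠ 0) (hn : 0 < n)
    (hin : orderOf (Fintype.card F : ZMod r) ≤ n)
    (Good : Module.End F (Fin n → F) → Prop) (D C : Prop)
    (hscale : ∀ (x : Module.End F (Fin n → F)) (d : F), d ≠ 0 → Good (d • x) → Good x)
    (hK : ∀ (x : Module.End F (Fin n → F)) (c : F), Irreducible (X ^ r - Polynomial.C c : F[X]) → x ^ r = c • 1 →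
      (Good x ↔ D))
    (hS : ∀ x : Module.End F (Fin n → F), x ^ r = 1 → C → Good x)
    (hS' : ∀ x : Module.End F (Fin n → F), x ^ r = 1 →
      finrank F ↥(fx x) = n % orderOf (Fintype.card F : ZMod r) → Good x → C)
    (hC1 : orderOf (Fintype.card F : ZMod r) = 1 → C) :
    (∀ x : Matrix.SpecialLinearGroup (Fin n) F,
      (∃ c : F, ((x ^ r : Matrix.SpecialLinearGroup (Fin n) F) : Matrix (Fin n) (Fin n) F) = c • (1 : Matrix (Fin n) (Fin n) F)) →
      (∀ c : F, (x : Matrix (Fin n) (Fin n) F) ≠ c • (1 : Matrix (Fin n) (Fin n) F)) →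
      Good (Matrix.toLin' (x : Matrix (Fin n) (Fin n) F))) ↔
    ((orderOf (Fintype.card F : ZMod r) = 1 ∧ (D ∨ (padicValNat r n ≤ padicValNat r (Fintype.card F - 1) ∧
        (r = 2 → Even n → Fintype.card F % 4 = 1)))) ∨
      (2 ≤ orderOf (Fintype.card F : ZMod r) ∧ C)) := by
  have hrp : r.Prime := Fact.out
  set i := orderOf (Fintype.card F : ZMod r) with hi
  have hi0 : 0 < i := ord_pos hrF
  have hcne : ∀ (x : Matrix.SpecialLinearGroup (Fin n) F) (c : F),
      (x : Matrix (Fin n) (Fin n) F) ^ r = c • (1 : Matrix (Fin n) (Fin n) F) → c ≠ 0 := by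
    rintro x c hx rfl
    have h1 : ((x : Matrix (Fin n) (Fin n) F) ^ r).det = 1 := by
      rw [Matrix.det_pow, x.det_coe, one_pow]
    have : Nonempty (Fin n) := ⟨⟨0, hn⟩⟩
    rw [hx, zero_smul, Matrix.det_zero] at h1
    exact zero_ne_one h1
  -- elements whose `r`-th power is an `r`-th power of a scalar
  have hgood : C → ∀ (x : Matrix.SpecialLinearGroup (Fin n) F) (c d : F),
      (x : Matrix (Fin n) (Fin n) F) ^ r = c • (1 : Matrix (Fin n) (Fin n) F) → d ^ r = c →
      Good (Matrix.toLin' (x : Matrix (Fin n) (Fin n) F)) := by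
    intro hC x c d hx hd
    have hc0 := hcne x c hx
    have hd0 : d ≠ 0 := by
      rintro rfl
      exact hc0 (by rw [← hd, zero_pow hrp.ne_zero])
    exact hscale _ d⁻¹ (inv_ne_zero hd0) (hS _ (rescale_pow (toLin'_pow_eq hx) hd hd0) hC)
  rcases Nat.lt_or_ge i 2 with h1 | h1
  · have hi1 : i = 1 := by omega
    have hrq : r ∣ Fintype.card F - 1 := ord_eq_one_iff.1 (hi ▸ hi1)
    have hC : C := hC1 hi1
    rw [or_iff_left (by rintro ⟨h2, -⟩; omega), and_iff_right hi1]
    constructor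
    · intro h
      by_contra hcon
      push Not at hcon
      obtain ⟨hD, hcond⟩ := hcon
      obtain ⟨x, c, hP, hx⟩ := exists_SL_of_not_cond hrq hn.ne' (fun h2 => by
        obtain ⟨h3, h4, h5⟩ := hcond h2.1
        exact h5 (h2.2 h3 h4))
      exact hD ((hK _ c hP (toLin'_pow_eq hx)).1 (h x ⟨c, hx⟩ (not_scalar_of_irred hn hrp.two_le hP hx)))
    · rintro h x ⟨c, hx⟩ -
      have hx' : (x : Matrix (Fin n) (Fin n) F) ^ r = c • (1 : Matrix (Fin n) (Fin n) F) := hx
      by_cases hd : ∃ d : F, d ^ r = c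
      · obtain ⟨d, hd⟩ := hd
        exact hgood hC x c d hx' hd
      · rcases h with h | h
        · push Not at hd
          have hP : Irreducible (X ^ r - Polynomial.C c : F[X]) := X_pow_sub_C_irreducible_of_prime hrp hd
          exact (hK _ c hP (toLin'_pow_eq hx')).2 h
        · exact absurd (exists_root_of_cond hrq hn.ne' h x.det_coe hx') hd
  · have hrq : ¬ r ∣ Fintype.card F - 1 := fun h2 => by
      have := ord_eq_one_iff.2 h2
      omega
    rw [or_iff_right (by rintro ⟨h2, -⟩; omega), and_iff_right h1]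
    constructor
    · intro h
      obtain ⟨x, hx, hfx⟩ := exists_SL_fx hrF hrq hin
      refine hS' _ ?_ hfx (h x ⟨1, by rw [one_smul]; exact hx⟩ (not_scalar_of_pow hrq hn hx ?_))
      · have := toLin'_pow_eq (c := (1 : F)) (r := r) (x := (x : Matrix (Fin n) (Fin n) F)) (by rw [hx, one_smul])
        rwa [one_smul] at this
      · intro hx1
        rw [hx1, Matrix.toLin'_one] at hfx
        have h3 : fx (LinearMap.id : Module.End F (Fin n → F)) = ⊤ := by
          rw [eq_top_iff]; intro v _; rw [mem_fx]; rfl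
        rw [h3, finrank_top, Module.finrank_fin_fun] at hfx
        have h4 : n % orderOf (Fintype.card F : ZMod r) < orderOf (Fintype.card F : ZMod r) := Nat.mod_lt n hi0
        rw [← hi] at h4 hfx
        omega
    · rintro hC x ⟨c, hx⟩ -
      obtain ⟨d, hd⟩ := exists_pow_eq hrq c
      exact hgood hC x c d hx hd

/-- Consequences of `r ∣ q^{n-j} - 1` for `i = ord_r(q)`. -/
lemma ord_bounds {n j r : ℕ} (hj : j < n) (h : r ∣ Fintype.card F ^ (n - j) - 1) :
    orderOf (Fintype.card F : ZMod r) ≤ n ∧ n % orderOf (Fintype.card F : ZMod r) ≤ j := by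
  rw [dvd_pow_sub_one_iff Fintype.card_pos] at h
  obtain ⟨t, ht⟩ := h
  constructor
  · exact (Nat.le_of_dvd (by omega) ⟨t, ht⟩).trans (Nat.sub_le _ _)
  · have h2 : n = j + orderOf (Fintype.card F : ZMod r) * t := by omega
    rw [h2, Nat.add_mul_mod_self_left]
    exact Nat.mod_le _ _

end

end Cfsg.Agent.H950
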