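import Cfsg.Agent.H950.UEx
/-!
# Unitary elements of odd prime order (modulo scalars) with few invariant totally isotropic subspaces, continued
-/

set_option autoImplicit false
set_option linter.unusedSectionVars false

namespace Cfsg.Agent.H950

open Cfsg Module Polynomial Cfsg.Agent.H951 Cfsg.Agent.LieClassical.HermBasic Cfsg.Agent.ClassicalGeometry

variable {F : Type*} [Field F] [Fintype F] {q n : ℕ}

/-- (N1) -/
theorem nec_one (hF : Fintype.card F = q ^ 2) {r : ℕ} [Fact r.Prime] (hr : (r : F) ≠ 0) (hrq : ¬ r ∣ q)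
    (hrq1 : ¬ r ∣ q + 1) {c : ℕ} (hc : c = orderOf (-(q : ZMod r))) (hc0 : 0 < c) (n : ℕ) :
    ∃ x : Matrix.SpecialLinearGroup (Fin n) F, x ∈ SU n F q ∧
      (x : Matrix (Fin n) (Fin n) F) ^ r = (1 : F) • (1 : Matrix (Fin n) (Fin n) F) ∧
      finrank F (fx (Matrix.toLin' (x : Matrix (Fin n) (Fin n) F))) = n % c := by
  obtain ⟨y, hy, hyr, hyf⟩ := exists_fix_mod hF hr hrq hc hc0 n
  obtain ⟨x, hx, hxy, hxr⟩ := exists_SL hy (r := r) (z := 1) (by rw [hyr, one_smul]) (det_eq_one hF hrq1 hy hyr)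
  exact ⟨x, hx, hxr, by rw [hxy]; exact hyf⟩

lemma eval_one_ne {r : ℕ} [Fact r.Prime] (hr : (r : F) ≠ 0) {Q : F[X]} (hQ : Q ∣ cyclotomic r F) : Q.eval 1 ≠ 0 := by
  intro h
  obtain ⟨P', hP'⟩ := hQ
  have h1 := congrArg (eval 1) hP'
  rw [eval_mul, h, zero_mul, eval_one_cyclotomic_prime] at h1
  exact hr h1

/-- (N2), `i > 2` -/
theorem nec_two (hF : Fintype.card F = q ^ 2) {r : ℕ} [Fact r.Prime] (hr : (r : F) ≠ 0) (hrq : ¬ r ∣ q)
    (hrq1 : ¬ r ∣ q + 1) {b : ℕ} (hb : b = orderOf (Fintype.card F : ZMod r)) (hb' : b = orderOf (-(q : ZMod r)))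
    (hb0 : 0 < b) {A : ℕ} (hA : b * A ≤ r - 1) (hAn : b * A ≤ n) :
    ∃ x : Matrix.SpecialLinearGroup (Fin n) F, x ∈ SU n F q ∧
      (x : Matrix (Fin n) (Fin n) F) ^ r = (1 : F) • (1 : Matrix (Fin n) (Fin n) F) ∧
      ∀ W : Submodule F (Fin n → F), TI (hermForm n F q) W →
        Inv (Matrix.toLin' (x : Matrix (Fin n) (Fin n) F)) W → 2 * finrank F W ≤ n - b * A := by
  obtain ⟨l, rfl⟩ : ∃ l, n = b * A + l := ⟨n - b * A, by omega⟩
  obtain ⟨y, Q, hy, hyr, hyn, hyQ, hQd, hQn⟩ := exists_multfree hF hr hrq hb hb' hb0 A hA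
  have h1 : Isom (hermForm (b * A + l) F q) (dsum y (1 : Module.End F (Fin l → F))) := isom_dsum hy isom_one
  have h2 : (dsum y (1 : Module.End F (Fin l → F))) ^ r = 1 := by
    rw [dsum_pow, hyr, one_pow]
    have := dsum_smul_one (k := b * A) (l := l) (1 : F)
    rwa [one_smul, one_smul, one_smul] at this
  obtain ⟨x, hx, hxy, hxr⟩ := exists_SL h1 (r := r) (z := 1) (by rw [h2, one_smul]) (det_eq_one hF hrq1 h1 h2)
  refine ⟨x, hx, hxr, fun W hWti hW => ?_⟩
  rw [hxy] at hW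
  have := two_mul_finrank_le_of_NT hF hyn hyQ (eval_one_ne hr hQd) hW hWti
  omega

/-- Adding one more eigenvalue. -/
lemma nt_add_one (hF : Fintype.card F = q ^ 2) {k : ℕ} {y : Module.End F (Fin k → F)} (hy : NT q y) {Q : F[X]}
    (hQ : aeval y Q = 0) {a : F} (ha : Q.eval a ≠ 0) :
    NT q (dsum y (a • (1 : Module.End F (Fin 1 → F)))) ∧
      aeval (dsum y (a • (1 : Module.End F (Fin 1 → F)))) (Q * (X - C a)) = 0 := by
  have h1 : aeval (a • (1 : Module.End F (Fin 1 → F))) (X - C a) = 0 := by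
    rw [map_sub, aeval_X, aeval_C, Algebra.algebraMap_eq_smul_one, sub_self]
  have hco : IsCoprime Q (X - C a) := by
    have h1 : ¬ (X - C a) ∣ Q := fun h => ha (dvd_iff_isRoot.1 h)
    exact (((irreducible_X_sub_C a).coprime_iff_not_dvd).2 h1).symm
  constructor
  · refine hy.dsum ?_ hco hQ h1
    intro W _ hWti
    have h2 := (frm_herm hF 1).two_mul_finrank_le (nd_top hF 1) le_top hWti
    rw [finrank_top, finrank_fin_fun] at h2
    exact Submodule.finrank_eq_zero.1 (by omega)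
  · rw [aeval_dsum, map_mul, map_mul, hQ, h1, zero_mul, mul_zero, dsum_zero]

lemma isom_scalar {a : F} (ha : a ^ (q + 1) = 1) : Isom (hermForm n F q) (a • (1 : Module.End F (Fin n → F))) := by
  intro u v
  rw [LinearMap.smul_apply, LinearMap.smul_apply, herm_smul_left, herm_smul_right, ← mul_assoc, ← pow_succ', ha,
    one_mul]
  rfl

lemma exists_multfree_one (hF : Fintype.card F = q ^ 2) {r : ℕ} [Fact r.Prime] (hrq1 : r ∣ q + 1) {ζ : F}
    (hζ : orderOf ζ = r) (t : ℕ) (ht : 2 * t ≤ r - 1) (N : ℕ) (hN : N = 2 * t) :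
    ∃ (y : Module.End F (Fin N → F)) (Q : F[X]), Isom (hermForm N F q) y ∧ y ^ r = 1 ∧ NT q y ∧
      aeval y Q = 0 ∧ LinearMap.det y = 1 ∧ ∀ u, Q.eval u = 0 → ∃ j, 1 ≤ j ∧ j ≤ t ∧ (u = ζ ^ j ∨ u = (ζ ^ j)⁻¹) := by
  have hrp : r.Prime := Fact.out
  have hζr : ζ ^ r = 1 := by rw [← hζ]; exact pow_orderOf_eq_one ζ
  have hζ0 : ζ ≠ 0 := by
    rintro rfl
    rw [zero_pow hrp.ne_zero] at hζr
    exact zero_ne_one hζr
  have hζq : ζ ^ (q + 1) = 1 := orderOf_dvd_iff_pow_eq_one.1 (hζ ▸ hrq1)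
  have hne : ∀ a, 0 < a → a < r → ζ ^ a ≠ 1 := by
    intro a ha har h
    have := Nat.le_of_dvd ha (orderOf_dvd_of_pow_eq_one h)
    omega
  induction t generalizing N with
  | zero =>
    obtain rfl : N = 0 := by omega
    refine ⟨1, 1, isom_one, one_pow r, ?_, ?_, ?_, ?_⟩
    · intro W _ _
      apply Submodule.finrank_eq_zero.1
      have := Submodule.finrank_le W
      rw [finrank_fin_fun] at this
      omega
    · rw [map_one]
      apply LinearMap.ext
      intro v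
      funext i
      exact i.elim0
    · exact map_one _
    · intro u hu
      simp at hu
  | succ t ih =>
    obtain ⟨k, hk⟩ : ∃ k, k = 2 * t := ⟨_, rfl⟩
    obtain rfl : N = k + 1 + 1 := by omega
    obtain ⟨y, Q, hy, hyr, hyn, hyQ, hdet, hroots⟩ := ih (by omega) k hk
    set a := ζ ^ (t + 1) with ha
    have ha0 : a ≠ 0 := pow_ne_zero _ hζ0
    have hinv : ∀ j, 1 ≤ j → j ≤ t → a ≠ (ζ ^ j)⁻¹ := by
      intro j h1 h2 h
      apply hne (t + 1 + j) (by omega) (by omega)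
      rw [pow_add, ← ha, h, inv_mul_cancel₀ (pow_ne_zero _ hζ0)]
    have hpow : ∀ j, 1 ≤ j → j ≤ t → a ≠ ζ ^ j := by
      intro j h1 h2 h
      have h3 : ζ ^ j * ζ ^ (t + 1 - j) = ζ ^ j * 1 := by
        rw [← pow_add, show j + (t + 1 - j) = t + 1 by omega, ← ha, h, mul_one]
      exact hne (t + 1 - j) (by omega) (by omega) (mul_left_cancel₀ (pow_ne_zero _ hζ0) h3)
    have haQ : Q.eval a ≠ 0 := by
      intro h
      obtain ⟨j, h1, h2, h3 | h3⟩ := hroots a h
      · exact hpow j h1 h2 h3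
      · exact hinv j h1 h2 h3
    have haQ' : Q.eval a⁻¹ ≠ 0 := by
      intro h
      obtain ⟨j, h1, h2, h3 | h3⟩ := hroots _ h
      · exact hinv j h1 h2 (by rw [← h3, inv_inv])
      · exact hpow j h1 h2 (inv_injective h3)
    have haa : a⁻¹ ≠ a := by
      intro h
      apply hne (t + 1 + (t + 1)) (by omega) (by omega)
      rw [pow_add, ← ha]
      nth_rewrite 1 [← h]
      exact inv_mul_cancel₀ ha0
    obtain ⟨h1, h2⟩ := nt_add_one hF hyn hyQ haQ
    obtain ⟨h3, h4⟩ := nt_add_one hF h1 h2 (a := a⁻¹) (by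
      rw [eval_mul, eval_sub, eval_X, eval_C]
      exact mul_ne_zero haQ' (sub_ne_zero.2 haa))
    have har : a ^ r = 1 := by rw [ha, ← pow_mul, mul_comm, pow_mul, hζr, one_pow]
    have haq : a ^ (q + 1) = 1 := by rw [ha, ← pow_mul, mul_comm, pow_mul, hζq, one_pow]
    have hi : ∀ u : F, u ^ (q + 1) = 1 → Isom (hermForm 1 F q) (u • (1 : Module.End F (Fin 1 → F))) :=
      fun u hu => isom_scalar hu
    have hs : ∀ u : F, u ^ r = 1 → (u • (1 : Module.End F (Fin 1 → F))) ^ r = 1 := by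
      intro u hu
      rw [_root_.smul_pow, hu, one_pow, one_smul]
    have hd1 : ∀ {k l : ℕ}, dsum (1 : Module.End F (Fin k → F)) (1 : Module.End F (Fin l → F)) = 1 := by
      intro k l
      have := dsum_smul_one (k := k) (l := l) (1 : F)
      rwa [one_smul, one_smul, one_smul] at this
    refine ⟨dsum (dsum y (a • (1 : Module.End F (Fin 1 → F)))) (a⁻¹ • (1 : Module.End F (Fin 1 → F))), Q * (X - C a) * (X - C a⁻¹), ?_, ?_, h3, h4, ?_, ?_⟩
    · exact isom_dsum (isom_dsum hy (hi a haq)) (hi _ (by rw [inv_pow, haq, inv_one]))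
    · rw [dsum_pow, dsum_pow, hyr, hs a har, hs _ (by rw [inv_pow, har, inv_one]), hd1, hd1]
    · rw [det_dsum, det_dsum, hdet, LinearMap.det_smul, LinearMap.det_smul, finrank_fin_fun, pow_one, pow_one, one_mul,
        map_one, mul_one, mul_one, mul_inv_cancel₀ ha0]
    · intro u hu
      rw [eval_mul, eval_mul, eval_sub, eval_sub, eval_X, eval_C, eval_C] at hu
      rcases mul_eq_zero.1 hu with hu | hu
      · rcases mul_eq_zero.1 hu with hu | hu
        · obtain ⟨j, h5, h6, h7⟩ := hroots u hu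
          exact ⟨j, h5, by omega, h7⟩
        · exact ⟨t + 1, by omega, le_rfl, Or.inl (by rw [← ha]; exact sub_eq_zero.1 hu)⟩
      · exact ⟨t + 1, by omega, le_rfl, Or.inr (by rw [← ha]; exact sub_eq_zero.1 hu)⟩

/-- (N2), `i = 2` -/
theorem nec_two' (hF : Fintype.card F = q ^ 2) {r : ℕ} [Fact r.Prime] (hrq1 : r ∣ q + 1) {t : ℕ}
    (ht : 2 * t ≤ r - 1) (htn : 2 * t ≤ n) :
    ∃ x : Matrix.SpecialLinearGroup (Fin n) F, x ∈ SU n F q ∧
      (x : Matrix (Fin n) (Fin n) F) ^ r = (1 : F) • (1 : Matrix (Fin n) (Fin n) F) ∧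
      ∀ W : Submodule F (Fin n → F), TI (hermForm n F q) W →
        Inv (Matrix.toLin' (x : Matrix (Fin n) (Fin n) F)) W → 2 * finrank F W ≤ n - 2 * t := by
  have hrp : r.Prime := Fact.out
  obtain ⟨l, rfl⟩ : ∃ l, n = 2 * t + l := ⟨n - 2 * t, by omega⟩
  obtain ⟨ζ, hζ⟩ : ∃ ζ : F, orderOf ζ = r := by
    have h1 : r ∣ Nat.card Fˣ := by
      rw [Nat.card_units, Nat.card_eq_fintype_card, hF]
      have hq2 := two_le hF
      have : q ^ 2 - 1 = (q + 1) * (q - 1) := by
        have := Nat.sq_sub_sq q 1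
        simpa using this
      rw [this]
      exact hrq1.mul_right _
    obtain ⟨u, hu⟩ := exists_prime_orderOf_dvd_card' r h1
    exact ⟨u, by rw [orderOf_units]; exact hu⟩
  obtain ⟨y, Q, hy, hyr, hyn, hyQ, hdet, hroots⟩ := exists_multfree_one hF hrq1 hζ t ht _ rfl
  have h1 : Isom (hermForm (2 * t + l) F q) (dsum y (1 : Module.End F (Fin l → F))) := isom_dsum hy isom_one
  have h2 : (dsum y (1 : Module.End F (Fin l → F))) ^ r = 1 := by
    rw [dsum_pow, hyr, one_pow]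
    have := dsum_smul_one (k := 2 * t) (l := l) (1 : F)
    rwa [one_smul, one_smul, one_smul] at this
  obtain ⟨x, hx, hxy, hxr⟩ := exists_SL h1 (r := r) (z := 1) (by rw [h2, one_smul]) (by
    rw [det_dsum, hdet, map_one, mul_one])
  refine ⟨x, hx, hxr, fun W hWti hW => ?_⟩
  rw [hxy] at hW
  have hζ1 : ∀ j, 1 ≤ j → j ≤ t → ζ ^ j ≠ 1 := by
    intro j hj1 hj2 h
    have := Nat.le_of_dvd hj1 (orderOf_dvd_of_pow_eq_one h)
    omega
  have := two_mul_finrank_le_of_NT hF hyn hyQ (by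
    intro h
    obtain ⟨j, h5, h6, h7 | h7⟩ := hroots 1 h
    · exact hζ1 j h5 h6 h7.symm
    · exact hζ1 j h5 h6 (inv_eq_one.1 h7.symm)) hW hWti
  omega

open scoped Fin.CommRing Fin.NatCast in
/-- The monomial isometry `y` of the space of dimension `r` with `y ^ r = z`. -/
lemma exists_root_isom {r : ℕ} (hr : 0 < r) {z : F} (hz : z ^ (q + 1) = 1) :
    ∃ y : Module.End F (Fin r → F), Isom (hermForm r F q) y ∧ y ^ r = z • 1 := by
  have : NeZero r := ⟨hr.ne'⟩
  let d : Fin r → F := fun i => if i = 0 then z else 1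
  let y : Module.End F (Fin r → F) :=
    { toFun := fun v i => d i * v (i - 1)
      map_add' := fun u v => by funext i; simp [mul_add]
      map_smul' := fun c v => by funext i; simp; ring }
  have hy : ∀ v i, y v i = d i * v (i - 1) := fun v i => rfl
  have hpow : ∀ j : ℕ, ∀ v i, (y ^ j) v i = (∏ t ∈ Finset.range j, d (i - (t : Fin r))) * v (i - (j : Fin r)) := by
    intro j
    induction j with
    | zero => intro v i; simp
    | succ j ih =>
      intro v i
      rw [pow_succ, Module.End.mul_apply, ih, hy, Finset.prod_range_succ, mul_assoc]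
      congr 3
      push_cast
      ring
  refine ⟨y, ?_, ?_⟩
  · intro u v
    rw [herm_def, herm_def]
    have h1 : ∀ i, y u i * y v i ^ q = u (i - 1) * v (i - 1) ^ q := by
      intro i
      rw [hy, hy]
      have h2 : (d i) ^ (q + 1) = 1 := by
        change (if i = 0 then z else 1) ^ (q + 1) = 1
        split_ifs
        · exact hz
        · exact one_pow _
      calc _ = (d i) ^ (q + 1) * (u (i - 1) * v (i - 1) ^ q) := by ring
        _ = _ := by rw [h2, one_mul]
    rw [Finset.sum_congr rfl fun i _ => h1 i]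
    exact Equiv.sum_comp (Equiv.subRight (1 : Fin r)) fun i => u i * v i ^ q
  · apply LinearMap.ext
    intro v
    funext i
    rw [hpow, LinearMap.smul_apply, Module.End.one_apply, Pi.smul_apply, smul_eq_mul, Fin.natCast_self, sub_zero]
    congr 1
    rw [Finset.prod_range]
    have h1 : ∀ t : Fin r, d (i - ((t : ℕ) : Fin r)) = d (Equiv.subLeft i t) := fun t => by
      rw [Fin.cast_val_eq_self]; rfl
    rw [Finset.prod_congr rfl fun t _ => h1 t, Equiv.prod_comp (Equiv.subLeft i) d]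
    simp [d]

lemma exists_root_isom_mul {r : ℕ} (hr : 0 < r) {z : F} (hz : z ^ (q + 1) = 1) (A : ℕ) :
    ∃ y : Module.End F (Fin (r * A) → F), Isom (hermForm (r * A) F q) y ∧ y ^ r = z • 1 := by
  obtain ⟨g, hg, hgr⟩ := exists_root_isom (F := F) hr hz
  induction A with
  | zero =>
    refine ⟨1, isom_one, ?_⟩
    apply LinearMap.ext
    intro v
    funext i
    exact i.elim0
  | succ A ih =>
    obtain ⟨y, hy, hyr⟩ := ih
    refine ⟨(dsum y g : Module.End F (Fin (r * A + r) → F)), isom_dsum hy hg, ?_⟩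
    rw [dsum_pow, hyr, hgr, dsum_smul_one]

/-- (N3) -/
theorem nec_three (hF : Fintype.card F = q ^ 2) {r : ℕ} [Fact r.Prime] (hr2 : r ≠ 2) (h : r ∣ q + 1)
    (hn : n ≠ 0) (hlt : padicValNat r (q + 1) < padicValNat r n) :
    ∃ (x : Matrix.SpecialLinearGroup (Fin n) F) (z : F), x ∈ SU n F q ∧
      (x : Matrix (Fin n) (Fin n) F) ^ r = z • (1 : Matrix (Fin n) (Fin n) F) ∧
      (∀ d : F, d ^ r ≠ z) ∧ Irreducible (X ^ r - C z : F[X]) := by
  have hrp : r.Prime := Fact.out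
  obtain ⟨hrn, z, hzq, hz, hzn⟩ := exists_norm_nonpower hF hr2 h hn hlt
  have hirr : Irreducible (X ^ r - C z : F[X]) := X_pow_sub_C_irreducible_of_prime hrp hz
  obtain ⟨A, rfl⟩ := hrn
  obtain ⟨y, hy, hyr⟩ := exists_root_isom_mul (F := F) hrp.pos hzq A
  have hM : (LinearMap.toMatrix' y) ^ r = z • (1 : Matrix (Fin (r * A)) (Fin (r * A)) F) := by
    apply Matrix.toLin'.injective
    rw [Matrix.toLin'_pow, Matrix.toLin'_toMatrix', hyr, map_smul, Matrix.toLin'_one]
    rfl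
  have hdet := (det_of_irred _ hM hirr hrp.pos).2
  rw [((hrp.odd_of_ne_two hr2).add_one).neg_one_pow, one_mul, hzn, LinearMap.det_toMatrix'] at hdet
  obtain ⟨x, hx, -, hxr⟩ := exists_SL hy (r := r) hyr hdet
  exact ⟨x, z, hx, hxr, hz, hirr⟩

end Cfsg.Agent.H950
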