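import Cfsg.Agent.H950.Exist
import Cfsg.Agent.LieClassical.HermBasic
/-!
# Orders of `q`, `q²`, `-q` modulo an odd prime; roots in the group of norm one elements
-/

set_option autoImplicit false

namespace Cfsg.Agent.H950

open Module Polynomial Cfsg.Agent.H951

section orders

variable {r : ℕ} [Fact r.Prime]

/-- The orders `b` of `q²` and `c` of `-q` modulo the odd prime `r` in terms of the order `i` of `q`. -/
theorem orders (hr2 : r ≠ 2) {q : ℕ} (hrq : ¬ r ∣ q) {i b c : ℕ} (hi : i = orderOf (q : ZMod r))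
    (hb : b = if Even i then i / 2 else i)
    (hc : c = if i % 4 = 0 then i else if i % 4 = 2 then i / 2 else 2 * i) :
    0 < i ∧ 0 < b ∧ b = orderOf (((q ^ 2 : ℕ) : ZMod r)) ∧ c = orderOf (-(q : ZMod r)) ∧
      ((c = 2 * b ∧ i % 4 ≠ 2) ∨ (c = b ∧ i % 4 = 2 ∧ Odd b ∧ i = 2 * b ∧ Even ((r - 1) / b))) ∧ b ∣ r - 1 := by
  have hrp : r.Prime := Fact.out
  have hq0 : (q : ZMod r) ≠ 0 := by
    rw [Ne, ZMod.natCast_eq_zero_iff]; exact hrq
  have hneg1 : (-1 : ZMod r) ≠ 1 := by
    have : Fact (2 < r) := ⟨lt_of_le_of_ne hrp.two_le (Ne.symm hr2)⟩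
    exact ZMod.neg_one_ne_one
  have hi1 : (q : ZMod r) ^ (r - 1) = 1 := ZMod.pow_card_sub_one_eq_one hq0
  have hi0 : 0 < i := by
    rw [hi]
    exact (isOfFinOrder_iff_pow_eq_one.2 ⟨r - 1, Nat.sub_pos_of_lt hrp.one_lt, hi1⟩).orderOf_pos
  have hir : i ∣ r - 1 := by rw [hi]; exact orderOf_dvd_of_pow_eq_one hi1
  have hb2 : b = orderOf (((q ^ 2 : ℕ) : ZMod r)) := by
    push_cast
    rw [orderOf_pow' _ (two_ne_zero), ← hi, hb]
    by_cases he : Even i
    · rw [if_pos he, Nat.gcd_eq_right (even_iff_two_dvd.1 he)]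
    · rw [if_neg he]
      have h1 : Nat.gcd i 2 = 1 := by
        rw [Nat.not_even_iff_odd] at he
        exact (Nat.coprime_two_right.2 he)
      rw [h1, Nat.div_one]
  have hb0 : 0 < b := by
    rw [hb]
    split_ifs with he
    · obtain ⟨k, hk⟩ := he; omega
    · exact hi0
  -- the order of `-q` is `b` or `2 b`
  set u : ZMod r := -(q : ZMod r) with hu
  have hu2 : u ^ 2 = ((q ^ 2 : ℕ) : ZMod r) := by rw [hu]; push_cast; ring
  have hu0 : u ≠ 0 := neg_ne_zero.2 hq0
  have huord : orderOf u / Nat.gcd (orderOf u) 2 = b := by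
    rw [hb2, ← hu2, orderOf_pow' _ (two_ne_zero)]
  have hupos : 0 < orderOf u :=
    (isOfFinOrder_iff_pow_eq_one.2 ⟨r - 1, Nat.sub_pos_of_lt hrp.one_lt, ZMod.pow_card_sub_one_eq_one hu0⟩).orderOf_pos
  have hcases : orderOf u = b ∨ orderOf u = 2 * b := by
    rcases Nat.even_or_odd (orderOf u) with he | ho
    · right
      rw [Nat.gcd_eq_right (even_iff_two_dvd.1 he)] at huord
      obtain ⟨k, hk⟩ := he
      omega
    · left
      have h1 : Nat.gcd (orderOf u) 2 = 1 := Nat.coprime_two_right.2 ho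
      rw [h1, Nat.div_one] at huord
      exact huord
  have hsq : ∀ a : ZMod r, a * a = 1 → a ≠ 1 → a = -1 := by
    intro a h1 h2
    have h3 : (a - 1) * (a + 1) = 0 := by linear_combination h1
    rcases mul_eq_zero.1 h3 with h | h
    · exact absurd (sub_eq_zero.1 h) h2
    · exact eq_neg_of_add_eq_zero_left h
  have hqb : Even i → (q : ZMod r) ^ b = -1 := by
    intro he
    have hib : i = 2 * b := by
      rw [hb, if_pos he]; obtain ⟨k, hk⟩ := he; omega
    apply hsq
    · rw [← pow_add, ← two_mul, ← hib, hi]; exact pow_orderOf_eq_one _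
    · intro h
      have := orderOf_dvd_of_pow_eq_one h
      rw [← hi, hib] at this
      have := Nat.le_of_dvd hb0 this
      omega
  have hbr : b ∣ r - 1 := by
    refine Dvd.dvd.trans ?_ hir
    rw [hb]
    split_ifs with he
    · exact Nat.div_dvd_of_dvd (even_iff_two_dvd.1 he)
    · exact dvd_rfl
  refine ⟨hi0, hb0, hb2, ?_, ?_, hbr⟩
  · rw [hc]
    split_ifs with h0 h2
    · have he : Even i := by rw [Nat.even_iff]; omega
      have hib : i = 2 * b := by rw [hb, if_pos he]; omega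
      have hbe : Even b := by rw [Nat.even_iff]; omega
      rcases hcases with h | h
      · exfalso
        have h1 : u ^ b = 1 := by rw [← h]; exact pow_orderOf_eq_one _
        rw [hu, hbe.neg_pow, hqb he] at h1
        exact hneg1 h1
      · rw [h, hib]
    · have he : Even i := by rw [Nat.even_iff]; omega
      have hib : i = 2 * b := by rw [hb, if_pos he]; omega
      have hbo : Odd b := by rw [Nat.odd_iff]; omega
      have h1 : u ^ b = 1 := by rw [hu, hbo.neg_pow, hqb he, neg_neg]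
      have h3 := Nat.le_of_dvd hb0 (orderOf_dvd_of_pow_eq_one h1)
      rcases hcases with h | h
      · rw [h]; omega
      · omega
    · have ho : Odd i := by rw [Nat.odd_iff]; omega
      have hib : b = i := by rw [hb, if_neg (Nat.not_even_iff_odd.2 ho)]
      rcases hcases with h | h
      · exfalso
        have h1 : u ^ b = 1 := by rw [← h]; exact pow_orderOf_eq_one _
        have h4 : (q : ZMod r) ^ i = 1 := by rw [hi]; exact pow_orderOf_eq_one _
        rw [hib, hu, ho.neg_pow, h4] at h1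
        exact hneg1 h1
      · rw [h, hib]
  · rw [hc]
    split_ifs with h0 h2
    · have he : Even i := by rw [Nat.even_iff]; omega
      left
      rw [hb, if_pos he]; omega
    · have he : Even i := by rw [Nat.even_iff]; omega
      right
      have hib : i = 2 * b := by rw [hb, if_pos he]; omega
      have hbo : Odd b := by rw [Nat.odd_iff]; omega
      refine ⟨by omega, h2, hbo, hib, ?_⟩
      obtain ⟨k, hk⟩ := hir
      have h5 : r - 1 = b * (2 * k) := by rw [hk, hib]; ring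
      rw [h5, Nat.mul_div_cancel_left _ hb0]
      exact even_two_mul k
    · have ho : Odd i := by rw [Nat.odd_iff]; omega
      left
      have hib : b = i := by rw [hb, if_neg (Nat.not_even_iff_odd.2 ho)]
      omega

end orders

section norm_one

variable {F : Type*} [Field F] [Fintype F] {q : ℕ}

omit [Fintype F] in
/-- If `r ∤ q + 1`, elements of norm one are `r`-th powers of such elements. -/
lemma exists_norm_root_of_not_dvd {r : ℕ} [Fact r.Prime] (hr : ¬ r ∣ q + 1) {z : F} (hz : z ^ (q + 1) = 1) :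
    ∃ w : F, w ^ (q + 1) = 1 ∧ w ^ r = z := by
  have hco : Nat.Coprime r (orderOf z) :=
    Nat.Coprime.coprime_dvd_right (orderOf_dvd_of_pow_eq_one hz)
      ((Nat.Prime.coprime_iff_not_dvd Fact.out).2 hr)
  obtain ⟨m, hm⟩ := exists_pow_eq_self_of_coprime hco
  exact ⟨z ^ m, by rw [← pow_mul, mul_comm, pow_mul, hz, one_pow], by rw [← pow_mul, mul_comm, pow_mul, hm]⟩

lemma not_dvd_sub_of_dvd_add {r q : ℕ} (hr : r.Prime) (hr2 : r ≠ 2) (hq : 1 ≤ q) (h : r ∣ q + 1) : ¬ r ∣ q - 1 := by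
  intro h1
  have h2 : r ∣ 2 := by
    have := Nat.dvd_sub h h1
    rwa [show q + 1 - (q - 1) = 2 by omega] at this
  exact hr2 ((Nat.prime_dvd_prime_iff_eq hr Nat.prime_two).1 h2)

/-- If `r ∤ q - 1` then every `r`-th root of an element of norm one has norm one. -/
lemma norm_root {r : ℕ} [Fact r.Prime] (hF : Fintype.card F = q ^ 2) (hr : ¬ r ∣ q - 1) {z d : F}
    (hz : z ^ (q + 1) = 1) (hd : d ^ r = z) : d ^ (q + 1) = 1 := by
  have hrp : r.Prime := Fact.out
  have hq2 : 2 ≤ q := LieClassical.HermBasic.two_le hF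
  have hd0 : d ≠ 0 := by
    rintro rfl
    rw [zero_pow hrp.ne_zero] at hd
    rw [← hd, zero_pow (by omega)] at hz
    exact zero_ne_one hz
  have h1 : (d ^ (q + 1)) ^ r = 1 := by rw [← pow_mul, mul_comm, pow_mul, hd, hz]
  have h2 : (d ^ (q + 1)) ^ (q - 1) = 1 := by
    rw [← pow_mul, show (q + 1) * (q - 1) = Fintype.card F - 1 by
      rw [hF]; obtain ⟨t, rfl⟩ : ∃ t, q = t + 1 := ⟨q - 1, by omega⟩
      rw [Nat.add_sub_cancel]
      have : (t + 1) ^ 2 = (t + 1 + 1) * t + 1 := by ring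
      omega]
    exact FiniteField.pow_card_sub_one_eq_one d hd0
  rcases (Nat.dvd_prime hrp).1 (orderOf_dvd_of_pow_eq_one h1) with h | h
  · exact orderOf_eq_one_iff.1 h
  · exact absurd (h ▸ orderOf_dvd_of_pow_eq_one h2) hr

/-- A non-`r`-th power of order the `r`-part of `|F| - 1`. -/
lemma exists_nonpower {r : ℕ} [Fact r.Prime] (h : r ∣ Fintype.card F - 1) :
    ∃ a : F, (∀ d : F, d ^ r ≠ a) ∧ orderOf a = r ^ padicValNat r (Fintype.card F - 1) := by
  have hrp : r.Prime := Fact.out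
  have hq1 : Fintype.card F - 1 ≠ 0 := (Nat.sub_pos_of_lt Fintype.one_lt_card).ne'
  obtain ⟨g, hg⟩ := IsCyclic.exists_generator (α := Fˣ)
  have hord : orderOf g = Fintype.card F - 1 := by
    rw [orderOf_eq_card_of_forall_mem_zpowers hg, Nat.card_units, Nat.card_eq_fintype_card]
  obtain ⟨s, hs⟩ := pow_padicValNat_dvd (p := r) (n := Fintype.card F - 1)
  set k := padicValNat r (Fintype.card F - 1) with hk
  have hs0 : s ≠ 0 := by rintro rfl; rw [mul_zero] at hs; exact hq1 hs
  have hgs : orderOf (g ^ s) = r ^ k := by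
    rw [orderOf_pow' g hs0, hord, hs, Nat.gcd_eq_right (dvd_mul_left _ _), Nat.mul_div_cancel _ (Nat.pos_of_ne_zero hs0)]
  have hordF : orderOf ((g ^ s : Fˣ) : F) = r ^ k := by rw [orderOf_units, hgs]
  refine ⟨((g ^ s : Fˣ) : F), ?_, hordF⟩
  intro d hd
  have h1 := (exists_pow_eq_iff h (Units.ne_zero (g ^ s))).1 ⟨d, hd⟩
  rw [← orderOf_dvd_iff_pow_eq_one, hordF] at h1
  have h3 : r ^ (k + 1) ∣ Fintype.card F - 1 := by
    obtain ⟨u, hu⟩ := h1
    refine ⟨u, ?_⟩
    rw [pow_succ, mul_right_comm, ← hu, Nat.div_mul_cancel h]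
  have := (padicValNat_dvd_iff_le hq1).1 h3
  omega

lemma padic_card {r : ℕ} [Fact r.Prime] (hF : Fintype.card F = q ^ 2) (hr2 : r ≠ 2) (h : r ∣ q + 1) :
    r ∣ Fintype.card F - 1 ∧ padicValNat r (Fintype.card F - 1) = padicValNat r (q + 1) := by
  have hrp : r.Prime := Fact.out
  have hq2 : 2 ≤ q := LieClassical.HermBasic.two_le hF
  have h1 : Fintype.card F - 1 = (q + 1) * (q - 1) := by
    rw [hF]; obtain ⟨t, rfl⟩ : ∃ t, q = t + 1 := ⟨q - 1, by omega⟩
    rw [Nat.add_sub_cancel]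
    have : (t + 1) ^ 2 = (t + 1 + 1) * t + 1 := by ring
    omega
  have h2 := not_dvd_sub_of_dvd_add hrp hr2 (by omega) h
  refine ⟨by rw [h1]; exact h.mul_right _, ?_⟩
  rw [h1, padicValNat.mul (by omega) (by omega), padicValNat.eq_zero_of_not_dvd h2, add_zero]

/-- Case `r ∣ q + 1`: a norm one non-`r`-th power `z` with `z^{n/r} = 1` exists iff `v_r(q+1) < v_r(n)`. -/
lemma exists_norm_nonpower {r n : ℕ} [Fact r.Prime] (hF : Fintype.card F = q ^ 2) (hr2 : r ≠ 2) (h : r ∣ q + 1)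
    (hn : n ≠ 0) (hlt : padicValNat r (q + 1) < padicValNat r n) :
    r ∣ n ∧ ∃ z : F, z ^ (q + 1) = 1 ∧ (∀ d : F, d ^ r ≠ z) ∧ z ^ (n / r) = 1 := by
  have hrp : r.Prime := Fact.out
  obtain ⟨h1, h2⟩ := padic_card hF hr2 h
  have hrn : r ∣ n := dvd_of_one_le_padicValNat (by omega)
  obtain ⟨z, hz, hzo⟩ := exists_nonpower h1
  rw [h2] at hzo
  refine ⟨hrn, z, ?_, hz, ?_⟩
  · rw [← orderOf_dvd_iff_pow_eq_one, hzo]; exact pow_padicValNat_dvd
  · rw [← orderOf_dvd_iff_pow_eq_one, hzo]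
    obtain ⟨e, he⟩ := hrn
    have he0 : e ≠ 0 := by rintro rfl; simp at he; exact hn he
    have hv : padicValNat r n = padicValNat r e + 1 := by
      rw [he, padicValNat.mul hrp.ne_zero he0, padicValNat_self, add_comm]
    rw [he, Nat.mul_div_cancel_left _ hrp.pos]
    exact (padicValNat_dvd_iff_le he0).2 (by omega)

lemma padic_lt_of_nonpower {r n : ℕ} [Fact r.Prime] (hF : Fintype.card F = q ^ 2) (hr2 : r ≠ 2) (h : r ∣ q + 1)
    (hn : n ≠ 0) (hrn : r ∣ n) {z : F} (hz : ∀ d : F, d ^ r ≠ z) (hzn : z ^ (n / r) = 1) :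
    padicValNat r (q + 1) < padicValNat r n := by
  obtain ⟨h1, h2⟩ := padic_card hF hr2 h
  rw [← h2]
  exact (exists_nonpower_iff h1 hn hrn).1 ⟨z, hz, hzn⟩

end norm_one

end Cfsg.Agent.H950
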