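import Cfsg.Agent.H950.USuff
/-!
# The case `r = 2`, `q` odd: totally isotropic `m`-spaces fixed by involutions of `PSU_n(q)`
-/

set_option autoImplicit false
set_option linter.unusedSectionVars false

namespace Cfsg.Agent.H950

open Cfsg Module Polynomial Cfsg.Agent.H951 Cfsg.Agent.LieClassical.HermBasic Cfsg.Agent.ClassicalGeometry

variable {F : Type*} [Field F] [Fintype F] {q n : ℕ}

/-- The determinant of an involution. -/
lemma det_invol {V : Type*} [AddCommGroup V] [Module F V] [FiniteDimensional F V] (h2 : ((2 : ℕ) : F) ≠ 0)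
    {y : Module.End F V} (hy : y ^ 2 = 1) : LinearMap.det y = (-1) ^ finrank F (cm y) := by
  have hcm : ∀ v ∈ cm y, y v = -v := by
    intro v hv
    obtain ⟨u, rfl⟩ := mem_cm.1 hv
    have h3 : y (y u) = u := by
      have := LinearMap.congr_fun hy u
      rwa [pow_two, Module.End.mul_apply] at this
    rw [map_sub, h3]; abel
  let e := Submodule.prodEquivOfIsCompl (fx y) (cm y) (isCompl_fx_cm h2 hy)
  have h1 : y = (e : (fx y × cm y) →ₗ[F] V) ∘ₗ
      (LinearMap.prodMap (LinearMap.id : fx y →ₗ[F] fx y) ((-1 : F) • (LinearMap.id : cm y →ₗ[F] cm y))) ∘ₗ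
      (e.symm : V →ₗ[F] (fx y × cm y)) := by
    refine LinearMap.ext fun v => ?_
    obtain ⟨p, rfl⟩ := e.surjective v
    rw [LinearMap.comp_apply, LinearMap.comp_apply, LinearEquiv.coe_coe, LinearEquiv.coe_coe, e.symm_apply_apply]
    obtain ⟨a, b⟩ := p
    rw [LinearMap.prodMap_apply]
    simp only [LinearMap.id_apply, LinearMap.smul_apply, e, Submodule.coe_prodEquivOfIsCompl']
    rw [map_add, mem_fx.1 a.2, hcm _ b.2]
    simp
  have h3 : LinearMap.det y = LinearMap.det (LinearMap.prodMap (LinearMap.id : fx y →ₗ[F] fx y)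
      ((-1 : F) • (LinearMap.id : cm y →ₗ[F] cm y))) := by
    conv_lhs => rw [h1]
    exact LinearMap.det_conj _ e
  rw [h3, LinearMap.det_prodMap, LinearMap.det_id, one_mul, LinearMap.det_smul, LinearMap.det_id, mul_one]

theorem two_suff (hF : Fintype.card F = q ^ 2) (h2 : ((2 : ℕ) : F) ≠ 0) (hqo : Odd q) {m : ℕ} (hn : 0 < n)
    (hmn : 2 * m ≤ n) (hcond : 2 * m < n ∨ padicValNat 2 (q + 1) ≤ padicValNat 2 n)
    {x : Matrix.SpecialLinearGroup (Fin n) F} (hx : x ∈ SU n F q) {z : F}
    (hz : (x : Matrix (Fin n) (Fin n) F) ^ 2 = z • (1 : Matrix (Fin n) (Fin n) F)) :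
    ∃ W : Submodule F (Fin n → F), finrank F W = m ∧ TI (hermForm n F q) W ∧
      Inv (Matrix.toLin' (x : Matrix (Fin n) (Fin n) F)) W := by
  have : Fact (Nat.Prime 2) := ⟨Nat.prime_two⟩
  have hB := frm_herm hF n
  have hq2 : 2 ≤ q := two_le hF
  obtain ⟨t, ht⟩ := hqo
  have hxi := isom_of_SU hx
  have hz' := toLin'_pow_eq hz
  have hzn := norm_of_scalar hF hn hxi hz'
  have hcard : Fintype.card F - 1 = (q + 1) * (2 * t) := by
    rw [hF, ht]
    have : (2 * t + 1) ^ 2 = (2 * t + 1 + 1) * (2 * t) + 1 := by ring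
    omega
  have hz0 : z ≠ 0 := by
    rintro rfl
    rw [zero_pow (by omega)] at hzn
    exact zero_ne_one hzn
  obtain ⟨w, hw⟩ : ∃ w : F, w ^ 2 = z := by
    rw [exists_pow_eq_iff (by rw [hcard]; exact ⟨(q + 1) * t, by ring⟩) hz0, hcard,
      show (q + 1) * (2 * t) / 2 = (q + 1) * t by
        rw [show (q + 1) * (2 * t) = 2 * ((q + 1) * t) by ring, Nat.mul_div_cancel_left _ (by norm_num)],
      pow_mul, hzn, one_pow]
  have hw0 : w ≠ 0 := by
    rintro rfl
    exact hz0 (by rw [← hw]; simp)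
  have hws : (w ^ (q + 1)) * (w ^ (q + 1)) = 1 := by
    rw [← pow_add, ← two_mul, pow_mul, hw, hzn]
  set X := Matrix.toLin' (x : Matrix (Fin n) (Fin n) F) with hX
  set y := w⁻¹ • X with hy
  have hy2 : y ^ 2 = 1 := rescale_pow hz' hw hw0
  have hcm : ∀ v ∈ cm y, y v = -v := by
    intro v hv
    obtain ⟨u, rfl⟩ := mem_cm.1 hv
    have h3 : y (y u) = u := by
      have := LinearMap.congr_fun hy2 u
      rwa [pow_two, Module.End.mul_apply] at this
    rw [map_sub, h3]; abel
  have hsum := finrank_fx_add_cm h2 hy2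
  rw [finrank_fin_fun] at hsum
  have hinvX : ∀ {Z : Submodule F (Fin n → F)}, Inv y Z → Inv X Z := fun h => (inv_smul_iff (inv_ne_zero hw0)).1 h
  have hinvcm : ∀ Z ≤ cm y, Inv y Z := fun Z hZ v hv => by rw [hcm v (hZ hv)]; exact Z.neg_mem hv
  have hcases : w ^ (q + 1) = 1 ∨ w ^ (q + 1) = -1 := by
    have h3 : (w ^ (q + 1) - 1) * (w ^ (q + 1) + 1) = 0 := by linear_combination hws
    rcases mul_eq_zero.1 h3 with h | h
    · exact Or.inl (sub_eq_zero.1 h)
    · exact Or.inr (eq_neg_of_add_eq_zero_left h)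
  rcases hcases with hw1 | hw1
  · have hyi : Isom (hermForm n F q) y := isom_smul hxi hw1
    have hDn : Nd (hermForm n F q) (cm y) := by
      have := hyi.nd_inf_cm hB h2 hy2 inv_top (nd_top hF n)
      rwa [top_inf_eq] at this
    have hCn : Nd (hermForm n F q) (fx y) := by
      have := hyi.nd_inf_fx hB h2 hy2 inv_top (nd_top hF n)
      rwa [top_inf_eq] at this
    have hpar : m ≤ finrank F (fx y) / 2 + finrank F (cm y) / 2 := by
      rcases Nat.lt_or_ge (2 * m) n with h | h
      · omega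
      · have hmn' : 2 * m = n := le_antisymm hmn h
        rcases Nat.even_or_odd (finrank F (cm y)) with he | ho
        · obtain ⟨k, hk⟩ := he; omega
        · exfalso
          have hcond' : padicValNat 2 (q + 1) ≤ padicValNat 2 n := hcond.resolve_left (by omega)
          have hdet : LinearMap.det X = 1 := by
            rw [hX, LinearMap.det_toLin']; exact x.det_coe
          have hXy : X = w • y := by rw [hy, smul_smul, mul_inv_cancel₀ hw0, one_smul]
          rw [hXy, LinearMap.det_smul, finrank_fin_fun, det_invol h2 hy2, ho.neg_one_pow, mul_neg_one] at hdet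
          have hwn : w ^ n = -1 := by rw [← hdet, neg_neg]
          have h5 : w ^ (2 * n) = 1 := by rw [two_mul, pow_add, hwn]; ring
          have h6 : orderOf w ∣ 2 * n := orderOf_dvd_of_pow_eq_one h5
          have h7 : orderOf w ∣ q + 1 := orderOf_dvd_of_pow_eq_one hw1
          have h8 : padicValNat 2 (orderOf w) ≤ padicValNat 2 (q + 1) :=
            (padicValNat_dvd_iff_le (by omega)).1 (pow_padicValNat_dvd.trans h7)
          have h9 : padicValNat 2 (2 * n) = padicValNat 2 n + 1 := by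
            rw [padicValNat.mul (by norm_num) hn.ne', padicValNat_self, add_comm]
          have h10 := dvd_div_of_padic_lt (r := 2) (by omega) h6 (by omega)
          rw [Nat.mul_div_cancel_left _ (by norm_num : 0 < 2)] at h10
          have h11 : w ^ n = 1 := orderOf_dvd_iff_pow_eq_one.1 h10
          rw [h11] at hwn
          apply h2
          have : (1 : F) + 1 = 0 := by nth_rewrite 1 [hwn]; ring
          rw [← this]; norm_num
    obtain ⟨a, b, hab, ha, hb⟩ : ∃ a b, m = a + b ∧ 2 * a ≤ finrank F (fx y) ∧ 2 * b ≤ finrank F (cm y) := by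
      rcases le_total m (finrank F (fx y) / 2) with h | h
      · exact ⟨m, 0, by omega, by omega, by omega⟩
      · exact ⟨finrank F (fx y) / 2, m - finrank F (fx y) / 2, by omega, by omega, by omega⟩
    obtain ⟨C', hC', hC'ti, hC'd⟩ := exists_ti_plain hF hCn ha
    obtain ⟨D', hD', hD'ti, hD'd⟩ := exists_ti_plain hF hDn hb
    have hperp : ∀ u ∈ C', ∀ v ∈ D', hermForm n F q u v = 0 := fun u hu v hv =>
      hyi.fx_cm hB (hC' hu) (hD' hv)
    have hdis : C' ⊓ D' = ⊥ := by
      rw [eq_bot_iff, ← (isCompl_fx_cm h2 hy2).inf_eq_bot]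
      exact inf_le_inf hC' hD'
    refine ⟨C' ⊔ D', ?_, ?_, hinvX ((inv_of_le_fx hC').sup (hinvcm D' hD'))⟩
    · rw [finrank_sup_of_disj hdis, hC'd, hD'd, hab]
    · intro u hu v hv
      obtain ⟨a, ha, b', hb', rfl⟩ := Submodule.mem_sup.1 hu
      obtain ⟨c', hc', d', hd', rfl⟩ := Submodule.mem_sup.1 hv
      rw [hB.add_left, hB.add_right, hB.add_right, hC'ti a ha c' hc', hperp a ha d' hd',
        hB.eq_zero_comm.1 (hperp c' hc' b' hb'), hD'ti b' hb' d' hd']
      simp
  · -- totally isotropic eigenspaces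
    have hyy : ∀ u v, hermForm n F q (y u) (y v) = - hermForm n F q u v := by
      intro u v
      rw [hy, LinearMap.smul_apply, LinearMap.smul_apply, herm_smul_left, herm_smul_right, hxi, ← mul_assoc,
        ← pow_succ', inv_pow, hw1]
      rw [inv_neg, inv_one, neg_one_mul]
    have h20 : ∀ a : F, a = -a → a = 0 := by
      intro a ha
      have h3 : ((2 : ℕ) : F) * a = 0 := by
        push_cast
        linear_combination ha
      exact (mul_eq_zero.1 h3).resolve_left h2
    have hCti : TI (hermForm n F q) (fx y) := by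
      intro u hu v hv
      apply h20
      have := hyy u v
      rwa [mem_fx.1 hu, mem_fx.1 hv] at this
    have hDti : TI (hermForm n F q) (cm y) := by
      intro u hu v hv
      apply h20
      have := hyy u v
      rwa [hcm u hu, hcm v hv, hB.neg_left, hB.neg_right, neg_neg] at this
    have h3 := hB.two_mul_finrank_le (nd_top hF n) le_top hCti
    have h4 := hB.two_mul_finrank_le (nd_top hF n) le_top hDti
    rw [finrank_top, finrank_fin_fun] at h3 h4
    obtain ⟨W, hW, hWd⟩ := exists_sub (fx y) (a := m) (by omega)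
    exact ⟨W, hWd, fun u hu v hv => hCti u (hW hu) v (hW hv), hinvX (inv_of_le_fx hW)⟩

/-- An element `w` of norm one with `w ^ n = -1`. -/
lemma exists_norm_neg (hF : Fintype.card F = q ^ 2) (h2 : ((2 : ℕ) : F) ≠ 0) (hn : 0 < n)
    (hlt : padicValNat 2 n < padicValNat 2 (q + 1)) : ∃ w : F, w ^ (q + 1) = 1 ∧ w ^ n = -1 := by
  have : Fact (Nat.Prime 2) := ⟨Nat.prime_two⟩
  have hq2 : 2 ≤ q := two_le hF
  obtain ⟨g, hg⟩ := IsCyclic.exists_generator (α := Fˣ)
  have hord : orderOf g = Fintype.card F - 1 := by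
    rw [orderOf_eq_card_of_forall_mem_zpowers hg, Nat.card_units, Nat.card_eq_fintype_card]
  have hcard : Fintype.card F - 1 = (q + 1) * (q - 1) := by
    rw [hF]; obtain ⟨t, rfl⟩ : ∃ t, q = t + 1 := ⟨q - 1, by omega⟩
    rw [Nat.add_sub_cancel]
    have : (t + 1) ^ 2 = (t + 1 + 1) * t + 1 := by ring
    omega
  set k := padicValNat 2 n with hk
  obtain ⟨e, he⟩ : 2 ^ (k + 1) ∣ q + 1 := (padicValNat_dvd_iff_le (by omega)).2 hlt
  obtain ⟨o, ho⟩ : 2 ^ k ∣ n := pow_padicValNat_dvd
  have hodd : Odd o := by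
    rw [← Nat.not_even_iff_odd]
    rintro ⟨o', ho'⟩
    have h3 : 2 ^ (k + 1) ∣ n := ⟨o', by rw [ho, ho', pow_succ]; ring⟩
    have := (padicValNat_dvd_iff_le hn.ne').1 h3
    omega
  have hs0 : e * (q - 1) ≠ 0 := by
    have : e ≠ 0 := by rintro rfl; simp at he
    exact Nat.mul_ne_zero this (by omega)
  have hgs : orderOf (g ^ (e * (q - 1))) = 2 ^ (k + 1) := by
    rw [orderOf_pow' g hs0, hord, hcard, he, mul_assoc, Nat.gcd_eq_right (dvd_mul_left _ _),
      Nat.mul_div_cancel _ (Nat.pos_of_ne_zero hs0)]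
  set w : F := ((g ^ (e * (q - 1)) : Fˣ) : F) with hw
  have hwo : orderOf w = 2 ^ (k + 1) := by rw [hw, orderOf_units, hgs]
  refine ⟨w, by rw [← orderOf_dvd_iff_pow_eq_one, hwo]; exact ⟨e, he⟩, ?_⟩
  have h3 : w ^ 2 ^ k = -1 := by
    have h4 : (w ^ 2 ^ k) * (w ^ 2 ^ k) = 1 := by
      rw [← pow_add, ← two_mul, ← pow_succ', ← hwo]; exact pow_orderOf_eq_one _
    have h5 : (w ^ 2 ^ k) ≠ 1 := by
      intro h
      have := orderOf_dvd_of_pow_eq_one h
      rw [hwo] at this
      have := Nat.le_of_dvd (by positivity) this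
      rw [pow_succ] at this
      have : 0 < 2 ^ k := by positivity
      omega
    have h6 : (w ^ 2 ^ k - 1) * (w ^ 2 ^ k + 1) = 0 := by linear_combination h4
    rcases mul_eq_zero.1 h6 with h | h
    · exact absurd (sub_eq_zero.1 h) h5
    · exact eq_neg_of_add_eq_zero_left h
  rw [ho, pow_mul, h3, hodd.neg_one_pow]

theorem two_nec (hF : Fintype.card F = q ^ 2) (h2 : ((2 : ℕ) : F) ≠ 0) (hqo : Odd q) (hn : 2 ≤ n)
    (hlt : padicValNat 2 n < padicValNat 2 (q + 1)) :
    ∃ x : Matrix.SpecialLinearGroup (Fin n) F, x ∈ SU n F q ∧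
      (∃ z : F, (x : Matrix (Fin n) (Fin n) F) ^ 2 = z • (1 : Matrix (Fin n) (Fin n) F)) ∧
      (∀ z : F, (x : Matrix (Fin n) (Fin n) F) ≠ z • (1 : Matrix (Fin n) (Fin n) F)) ∧
      ∀ W : Submodule F (Fin n → F), TI (hermForm n F q) W →
        Inv (Matrix.toLin' (x : Matrix (Fin n) (Fin n) F)) W → 2 * finrank F W < n := by
  obtain ⟨w, hw, hwn⟩ := exists_norm_neg hF h2 (show 0 < n by omega) hlt
  obtain ⟨n', rfl⟩ : ∃ n', n = n' + 1 := ⟨n - 1, by omega⟩
  have hw0 : w ≠ 0 := by
    rintro rfl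
    rw [zero_pow (by omega)] at hw
    exact zero_ne_one hw
  have hB := frm_herm hF (n' + 1)
  set D : Matrix (Fin (n' + 1)) (Fin (n' + 1)) F := Matrix.diagonal (Fin.cons (-w) fun _ => w) with hD
  have hdet : D.det = 1 := by
    rw [hD, Matrix.det_diagonal, Fin.prod_univ_succ]
    simp only [Fin.cons_zero, Fin.cons_succ, Finset.prod_const, Finset.card_univ, Fintype.card_fin]
    rw [neg_mul, ← pow_succ', hwn, neg_neg]
  have hDv : ∀ v : Fin (n' + 1) → F, ∀ i, (D.mulVec v) i = (Fin.cons (-w) fun _ => w : Fin (n' + 1) → F) i * v i :=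
    fun v i => by rw [hD, Matrix.mulVec_diagonal]
  have hnorm : ∀ i, ((Fin.cons (-w) fun _ => w : Fin (n' + 1) → F) i) ^ (q + 1) = 1 := by
    intro i
    refine Fin.cases ?_ (fun j => ?_) i
    · rw [Fin.cons_zero, (hqo.add_one).neg_pow, hw]
    · rw [Fin.cons_succ, hw]
  refine ⟨(⟨D, hdet⟩ : Matrix.SpecialLinearGroup (Fin (n' + 1)) F), (mem_SU_iff _).2 ?_, ⟨w ^ 2, ?_⟩, ?_, ?_⟩
  · intro u v
    change hermForm (n' + 1) F q (D.mulVec u) (D.mulVec v) = _
    rw [herm_def, herm_def]
    refine Finset.sum_congr rfl fun i _ => ?_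
    rw [hDv, hDv, mul_pow]
    calc _ = ((Fin.cons (-w) fun _ => w : Fin (n' + 1) → F) i) ^ (q + 1) * (u i * v i ^ q) := by ring
      _ = _ := by rw [hnorm, one_mul]
  · change D ^ 2 = _
    rw [hD, Matrix.diagonal_pow, ← Matrix.diagonal_one, ← Matrix.diagonal_smul]
    congr 1
    funext i
    refine Fin.cases ?_ (fun j => ?_) i
    · simp
    · simp
  · intro z hz
    change D = z • 1 at hz
    have h3 := congrFun (congrFun hz 0) 0
    have h4 := congrFun (congrFun hz (Fin.last n')) (Fin.last n')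
    have hl : Fin.last n' ≠ 0 := by
      intro h
      have := congrArg Fin.val h
      simp at this
      omega
    obtain ⟨j, hj⟩ := Fin.exists_succ_eq.2 hl
    rw [← hj] at h4
    simp only [hD, Matrix.diagonal_apply_eq, Fin.cons_zero, Fin.cons_succ, Matrix.smul_apply, Matrix.one_apply_eq,
      smul_eq_mul, mul_one] at h3 h4
    rw [← h4] at h3
    apply hw0
    have h5 : ((2 : ℕ) : F) * w = 0 := by push_cast; linear_combination -h3
    exact (mul_eq_zero.1 h5).resolve_left h2
  · intro W hWti hWi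
    set e₀ : Fin (n' + 1) → F := Pi.single 0 1 with he₀
    have he : hermForm (n' + 1) F q e₀ e₀ = 1 := by
      rw [he₀, herm_single_left]; simp
    have hv0 : ∀ v ∈ W, v 0 = 0 := by
      intro v hv
      by_contra hne
      have h3 := hWi v hv
      rw [Matrix.toLin'_apply] at h3
      have h4 : w • v - D.mulVec v ∈ W := W.sub_mem (W.smul_mem w hv) h3
      have h5 : w • v - D.mulVec v = (((2 : ℕ) : F) * w * v 0) • e₀ := by
        funext i
        rw [Pi.sub_apply, hDv, Pi.smul_apply, Pi.smul_apply]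
        refine Fin.cases ?_ (fun j => ?_) i
        · simp [he₀]; ring
        · simp [he₀]
      rw [h5] at h4
      have h6 := hWti _ h4 _ h4
      rw [herm_smul_left, herm_smul_right, he, mul_one] at h6
      have h7 : (((2 : ℕ) : F) * w * v 0) ≠ 0 := mul_ne_zero (mul_ne_zero h2 hw0) hne
      exact (mul_ne_zero h7 (pow_ne_zero _ h7)) h6
    set S : Submodule F (Fin (n' + 1) → F) := Submodule.span F {e₀} with hS
    have he0 : e₀ ≠ 0 := by
      intro h
      rw [h, herm_zero_left] at he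
      exact zero_ne_one he
    have hSd : finrank F S = 1 := finrank_span_singleton he0
    have hSn : Nd (hermForm (n' + 1) F q) S := by
      intro u hu hu0
      obtain ⟨a, rfl⟩ := Submodule.mem_span_singleton.1 hu
      refine ⟨e₀, Submodule.mem_span_singleton_self _, ?_⟩
      rw [herm_smul_left, he, mul_one]
      rintro rfl
      exact hu0 (zero_smul _ _)
    have h8 := hB.finrank_perp_inf hSn (U := ⊤) le_top
    have h9 := hB.nd_perp_inf (nd_top hF _) hSn (U := ⊤) le_top
    have hWS : W ≤ hB.perp S ⊓ ⊤ := by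
      intro v hv
      refine ⟨fun u hu => ?_, Submodule.mem_top⟩
      obtain ⟨a, rfl⟩ := Submodule.mem_span_singleton.1 hu
      rw [herm_smul_right, he₀, herm_single_right hF, hv0 v hv]
      simp
    have h10 := hB.two_mul_finrank_le h9 hWS hWti
    rw [hSd, finrank_top, finrank_fin_fun] at h8
    omega

end Cfsg.Agent.H950
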